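import Cfsg.Agent.Lib.Desc.Section
import Cfsg.Agent.S1521
import Mathlib.Tactic

/-!
# Coherence of the characters nontrivial on a central normal subgroup of a nilpotent normal subgroup
-/

set_option autoImplicit false

namespace Cfsg.Agent.Lib.Desc.XCoh2

open Cfsg
open Cfsg.Agent.Lib.Char.Basic Cfsg.Agent.Lib.Char.Ortho Cfsg.Agent.Lib.Char.Complete
open Cfsg.Agent.Lib.Char.Induced Cfsg.Agent.Lib.Char.Conj Cfsg.Agent.Lib.Char.GenLattice
open Cfsg.Agent.Lib.Char.Degree Cfsg.Agent.Lib.Char.Clifford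
open Cfsg.Agent.Lib.Coh.DegSum Cfsg.Agent.Lib.Coh.FrobDeg Cfsg.Agent.Lib.Coh.Basic
open Cfsg.Agent.Lib.Coh2.Frob Cfsg.Agent.Lib.CharX.Fixed Cfsg.Agent.Lib.OddChar.FixedClass
open Cfsg.Agent.Lib.Sibley.Mass Cfsg.Agent.Lib.Sibley.XCoh Cfsg.Agent.Lib.Desc.Basic
open scoped ComplexConjugate

universe u v

variable {N : Type u} [Group N] [Fintype N] {K Z : Subgroup N}

section Frob

variable (hX : ∀ χ ∈ nontrivOn Z, ∃ θ : K → ℂ, IsIrrCharacter K θ ∧ χ = indFun K θ)

include hX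

theorem exists_theta' {χ : N → ℂ} (hχ : χ ∈ nontrivOn Z) :
    ∃ θ : K → ℂ, IsIrrCharacter K θ ∧ χ = indFun K θ ∧ quotDeg K χ = charDegree θ := by
  obtain ⟨θ, hθ, rfl⟩ := hX χ hχ
  refine ⟨θ, hθ, rfl, ?_⟩
  rw [quotDeg, charDegree_ind (isCharacter_of_isIrrCharacter hθ)]
  exact Nat.mul_div_cancel_left _ (Nat.pos_of_ne_zero Subgroup.index_ne_zero_of_finite)

theorem charDegree_eq_mul' {χ : N → ℂ} (hχ : χ ∈ nontrivOn Z) : charDegree χ = K.index * quotDeg K χ := by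
  obtain ⟨θ, hθ, rfl, h⟩ := exists_theta' hX hχ
  rw [h, charDegree_ind (isCharacter_of_isIrrCharacter hθ)]

theorem quotDeg_pos' {χ : N → ℂ} (hχ : χ ∈ nontrivOn Z) : 0 < quotDeg K χ := by
  obtain ⟨θ, hθ, rfl, h⟩ := exists_theta' hX hχ
  rw [h]
  exact charDegree_pos hθ

/-- The basic mass identity. -/
theorem sum_quot' [hZ : Z.Normal] :
    K.index ^ 2 * ∑ χ ∈ nontrivOn Z, quotDeg K χ ^ 2 + Z.index = Nat.card N := by
  have h1 := sum_sq_nontrivOn Z
  rw [Finset.mul_sum, Finset.sum_congr rfl (g := fun χ => charDegree χ ^ 2)]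
  · exact h1
  · intro χ hχ
    rw [charDegree_eq_mul' hX hχ]
    ring

/-- The numerical facts on `Z`. -/
theorem exists_mass' (hcop : Nat.Coprime K.index (Nat.card K)) (hodd : Odd (Nat.card N)) (hZK : Z ≤ K)
    [hZ : Z.Normal] (hZ1 : Z ≠ ⊥) :
    ∃ κ u : ℕ, Nat.card K = κ * Nat.card Z ∧ Z.index = K.index * κ ∧ Nat.card Z = K.index * u + 1 ∧
      Even u ∧ 2 ≤ u ∧ ∑ χ ∈ nontrivOn Z, quotDeg K χ ^ 2 = κ * u := by
  classical
  set e := K.index with he
  have he0 : 0 < e := Nat.pos_of_ne_zero Subgroup.index_ne_zero_of_finite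
  have hZpos : 0 < Nat.card Z := Nat.card_pos
  obtain ⟨κ, hκ⟩ : Nat.card Z ∣ Nat.card K := Subgroup.card_dvd_of_le hZK
  rw [mul_comm] at hκ
  have hκpos : 0 < κ := by
    rcases Nat.eq_zero_or_pos κ with h | h
    · rw [h, zero_mul] at hκ
      exact absurd hκ (Nat.card_pos).ne'
    · exact h
  have hidx : Z.index = e * κ := by
    have h1 := Subgroup.card_mul_index K
    have h2 := Subgroup.card_mul_index Z
    have h3 : Nat.card Z * Z.index = Nat.card Z * (e * κ) := by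
      rw [h2, ← h1, hκ]
      ring
    exact Nat.eq_of_mul_eq_mul_left hZpos h3
  have hsum := sum_quot' hX
  set M := ∑ χ ∈ nontrivOn Z, quotDeg K χ ^ 2 with hM
  have h4 : e * (e * M + κ) = e * (κ * Nat.card Z) := by
    have h1 := Subgroup.card_mul_index K
    have : e * (κ * Nat.card Z) = Nat.card N := by
      rw [← h1, hκ]
      ring
    rw [this, ← hsum, hidx]
    ring
  have h5 : e * M + κ = κ * Nat.card Z := Nat.eq_of_mul_eq_mul_left he0 h4
  have hcard1 : Nat.card Z ≠ 1 := fun h => hZ1 ((Subgroup.eq_bot_iff_card Z).mpr h)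
  have hZ2 : 2 ≤ Nat.card Z := by omega
  obtain ⟨w, hw⟩ : ∃ w, Nat.card Z = w + 1 := ⟨Nat.card Z - 1, by omega⟩
  have h6 : e * M = κ * w := by
    rw [hw] at h5
    nlinarith
  have hcop' : Nat.Coprime e κ := by
    have h7 := hcop
    rw [hκ] at h7
    exact Nat.Coprime.coprime_mul_right_right h7
  have h8 : e ∣ w := hcop'.dvd_of_dvd_mul_left (Dvd.intro _ h6)
  obtain ⟨u, hu⟩ := h8
  have h9 : M = κ * u := by
    have : e * M = e * (κ * u) := by rw [h6, hu]; ring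
    exact Nat.eq_of_mul_eq_mul_left he0 this
  have hoddZ : Odd (Nat.card Z) := Odd.of_dvd_nat hodd (Subgroup.card_subgroup_dvd_card Z)
  have hodde : Odd e := Odd.of_dvd_nat hodd (Subgroup.index_dvd_card K)
  have hevenu : Even u := by
    have h10 : Even (e * u) := by
      rw [← hu]
      rw [hw] at hoddZ
      exact Nat.not_odd_iff_even.mp (Nat.odd_add_one.mp hoddZ)
    exact (Nat.even_mul.mp h10).resolve_left (Nat.not_even_iff_odd.mpr hodde)
  have hu0 : u ≠ 0 := by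
    rintro rfl
    rw [mul_zero] at hu
    omega
  have hu2 : 2 ≤ u := by
    obtain ⟨t, ht⟩ := hevenu
    omega
  exact ⟨κ, u, hκ, hidx, by rw [hw, hu], hevenu, hu2, h9⟩

/-- The degrees in the `p`-group case. -/
theorem exists_pow' {p m : ℕ} (hp : p.Prime) (hm : Nat.card K = p ^ m) {χ : N → ℂ} (hχ : χ ∈ nontrivOn Z) :
    ∃ a, quotDeg K χ = p ^ a := by
  obtain ⟨θ, hθ, rfl, h⟩ := exists_theta' hX hχ
  have h1 := charDegree_dvd_card hθ
  rw [hm] at h1
  obtain ⟨a, -, ha⟩ := (Nat.dvd_prime_pow hp).1 h1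
  exact ⟨a, by rw [h, ha]⟩

/-- `d² |Z| ≤ |K|` for `Z` central. -/
theorem sq_mul_card_le' (hZK : Z ≤ K) (hZc : ∀ z ∈ Z, ∀ k ∈ K, z * k = k * z) {χ : N → ℂ}
    (hχ : χ ∈ nontrivOn Z) : quotDeg K χ ^ 2 * Nat.card Z ≤ Nat.card K := by
  classical
  obtain ⟨θ, hθ, rfl, h⟩ := exists_theta' hX hχ
  rw [h]
  letI : Fintype K := Fintype.ofFinite _
  have h1 := Cfsg.Agent.S1492.result θ hθ (⊥ : Subgroup K) (⊤ : Subgroup K) (Z.subgroupOf K) bot_le le_top
    (fun c _ b hb => by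
      rw [Subgroup.mem_bot] at hb ⊢
      rw [hb]; group)
    (fun d hd c _ => by
      rw [Subgroup.mem_bot]
      have h2 := hZc d (Subgroup.mem_subgroupOf.1 hd) c c.2
      apply Subtype.ext
      have h3 : (d : N) * c * (d : N)⁻¹ * (c : N)⁻¹ = 1 := by
        rw [h2]
        group
      simpa using h3)
    (fun b hb => by
      rw [Subgroup.mem_bot] at hb
      rw [hb])
  have h2 : ‖θ 1‖ = (charDegree θ : ℝ) := by
    rw [← charDegree_natCast (isCharacter_of_isIrrCharacter hθ)]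
    simp
  have h3 : Nat.card (Z.subgroupOf K) = Nat.card Z := Nat.card_congr (Subgroup.subgroupOfEquivOfLe hZK).toEquiv
  rw [h2, h3, Subgroup.card_top] at h1
  have h4 : charDegree θ ^ 2 * Nat.card K * Nat.card Z ≤ Nat.card K ^ 2 := by exact_mod_cast h1
  have h5 : Nat.card K * (charDegree θ ^ 2 * Nat.card Z) ≤ Nat.card K * Nat.card K := by nlinarith
  exact Nat.le_of_mul_le_mul_left h5 Nat.card_pos

/-- In the `p`-group case `D² ∣ κ`. -/
theorem sq_dvd' {p m : ℕ} (hp : p.Prime) (hm : Nat.card K = p ^ m) (hZK : Z ≤ K)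
    (hZc : ∀ z ∈ Z, ∀ k ∈ K, z * k = k * z) {κ : ℕ} (hκ : Nat.card K = κ * Nat.card Z) {χ : N → ℂ}
    (hχ : χ ∈ nontrivOn Z) : quotDeg K χ ^ 2 ∣ κ := by
  obtain ⟨a, ha⟩ := exists_pow' hX hp hm hχ
  have h1 := sq_mul_card_le' hX hZK hZc hχ
  rw [hκ] at h1
  have h2 : quotDeg K χ ^ 2 ≤ κ := Nat.le_of_mul_le_mul_right h1 Nat.card_pos
  have h3 : κ ∣ p ^ m := by
    rw [← hm, hκ]
    exact Dvd.intro _ rfl
  obtain ⟨c, -, hc⟩ := (Nat.dvd_prime_pow hp).1 h3
  rw [ha, ← pow_mul, hc] at h2 ⊢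
  exact pow_dvd_of_le hp.one_lt h2

end Frob

section Coherent

variable {G : Type v} [Group G] [Fintype G]

/-- Coherence of the characters nontrivial on `Z`. -/
theorem coherent_X' (hX : ∀ χ ∈ nontrivOn Z, ∃ θ : K → ℂ, IsIrrCharacter K θ ∧ χ = indFun K θ)
    (hcop : Nat.Coprime K.index (Nat.card K))
    (hodd : Odd (Nat.card N)) {p m : ℕ} (hp : p.Prime) (hm : Nat.card K = p ^ m) (hZK : Z ≤ K) [hZ : Z.Normal]
    (hZ1 : Z ≠ ⊥) (hZc : ∀ z ∈ Z, ∀ k ∈ K, z * k = k * z) (τ : (N → ℂ) → (G → ℂ))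
    (hτ : IsLinearIsometryOn (zspanOn (↑(nontrivOn Z) : Set (N → ℂ)) {1}ᶜ) τ)
    (hτ1 : ∀ α ∈ zspanOn (↑(nontrivOn Z) : Set (N → ℂ)) {1}ᶜ, τ α 1 = 0) :
    IsCoherent (↑(nontrivOn Z) : Set (N → ℂ)) {1}ᶜ τ := by
  classical
  obtain ⟨κ, u, hκ, hidx, hZu, hevu, hu2, hsum⟩ := exists_mass' hX hcop hodd hZK hZ1
  set X := nontrivOn Z with hX'
  set e := K.index with he
  have he0 : 0 < e := Nat.pos_of_ne_zero Subgroup.index_ne_zero_of_finite
  have hκpos : 0 < κ := by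
    rcases Nat.eq_zero_or_pos κ with h | h
    · rw [h, zero_mul] at hκ
      exact absurd hκ (Nat.card_pos).ne'
    · exact h
  have hXne : X.Nonempty := by
    by_contra hne
    rw [Finset.not_nonempty_iff_eq_empty] at hne
    rw [hne, Finset.sum_empty] at hsum
    have : κ * u ≠ 0 := by positivity
    omega
  obtain ⟨χ₀, hχ₀, hmin⟩ := Finset.exists_min_image X (quotDeg K) hXne
  have hconjX : ∀ χ ∈ X, conjFun χ ∈ X := by
    intro χ hχ
    obtain ⟨h1, z, hz, hne⟩ := mem_nontrivOn.mp hχ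
    refine mem_nontrivOn.mpr ⟨Cfsg.Agent.Lib.CharX.Conj.isIrr_conj h1, z, hz, ?_⟩
    intro h
    exact hne ((starRingEnd ℂ).injective h)
  have hconjne : ∀ χ ∈ X, conjFun χ ≠ χ := by
    intro χ hχ
    obtain ⟨h1, z, hz, hne⟩ := mem_nontrivOn.mp hχ
    refine Cfsg.Agent.Lib.Coh2.Parity.conjFun_ne_of_odd hodd h1 ?_
    rintro rfl
    exact hne rfl
  have hconjdeg : ∀ χ ∈ X, quotDeg K (conjFun χ) = quotDeg K χ := by
    intro χ hχ
    obtain ⟨h1, -⟩ := mem_nontrivOn.mp hχ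
    have h2 : charDegree (conjFun χ) = charDegree χ := by
      apply charDegree_eq_of_eq_natCast
      change conj (χ 1) = _
      rw [← charDegree_natCast (isCharacter_of_isIrrCharacter h1)]
      simp
    simp only [quotDeg, h2]
  refine Cfsg.Agent.Lib.Coh.ByDegree.coherent_by_degree X (fun ξ hξ => (mem_nontrivOn.mp hξ).1) charDegree
    (fun ξ hξ => (charDegree_natCast (isCharacter_of_isIrrCharacter (mem_nontrivOn.mp hξ).1)).symm)
    (e * quotDeg K χ₀) ⟨χ₀, hχ₀, conjFun χ₀, hconjX _ hχ₀, (hconjne _ hχ₀).symm, ?_, ?_⟩ τ hτ hτ1 ?_ ?_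
  · exact charDegree_eq_mul' hX hχ₀
  · rw [charDegree_eq_mul' hX (hconjX _ hχ₀), hconjdeg _ hχ₀]
  · intro χ hχ
    rw [charDegree_eq_mul' hX hχ]
    exact Nat.mul_le_mul_left _ (hmin χ hχ)
  · intro χ hχ hlt
    rw [charDegree_eq_mul' hX hχ] at hlt ⊢
    set D := quotDeg K χ with hD
    set D₀ := quotDeg K χ₀ with hD₀
    have hD₀D : D₀ < D := Nat.lt_of_mul_lt_mul_left hlt
    obtain ⟨a, ha⟩ := exists_pow' hX hp hm hχ
    obtain ⟨a₀, ha₀⟩ := exists_pow' hX hp hm hχ₀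
    rw [← hD] at ha
    rw [← hD₀] at ha₀
    have hdvd : D₀ ∣ D := by
      rw [ha, ha₀] at hD₀D ⊢
      exact pow_dvd_of_le hp.one_lt hD₀D.le
    refine ⟨Nat.mul_dvd_mul_left _ hdvd, ?_⟩
    -- the mass below
    set A := ∑ ξ ∈ X.filter (fun ξ => quotDeg K ξ < D), quotDeg K ξ ^ 2 with hA
    set B := ∑ ξ ∈ X.filter (fun ξ => ¬ quotDeg K ξ < D), quotDeg K ξ ^ 2 with hB
    have hAB : A + B = κ * u := by
      rw [← hsum]
      exact Finset.sum_filter_add_sum_filter_not X _ _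
    have hBdvd : 2 * D ^ 2 ∣ B := by
      refine two_mul_dvd_sum _ conjFun ?_ ?_ ?_ _ ?_ _ ?_
      · intro ξ hξ
        obtain ⟨h1, h2⟩ := Finset.mem_filter.mp hξ
        exact Finset.mem_filter.mpr ⟨hconjX _ h1, by rw [hconjdeg _ h1]; exact h2⟩
      · intro ξ _
        funext x
        simp [conjFun]
      · intro ξ hξ
        exact hconjne _ (Finset.mem_filter.mp hξ).1
      · intro ξ hξ
        rw [hconjdeg _ (Finset.mem_filter.mp hξ).1]
      · intro ξ hξ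
        obtain ⟨h1, h2⟩ := Finset.mem_filter.mp hξ
        obtain ⟨b, hb⟩ := exists_pow' hX hp hm h1
        have h3 : D ≤ quotDeg K ξ := not_lt.mp h2
        rw [hb] at h3 ⊢
        rw [ha] at h3 ⊢
        exact pow_dvd_pow_of_dvd (pow_dvd_of_le hp.one_lt h3) 2
    have hκu : 2 * D ^ 2 ∣ κ * u := by
      have h1 : D ^ 2 ∣ κ := sq_dvd' hX hp hm hZK hZc hκ hχ
      obtain ⟨t, ht⟩ := hevu
      rw [ht, ← two_mul, mul_comm κ, mul_assoc]
      refine Nat.mul_dvd_mul_left 2 ?_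
      exact h1.mul_left t
    have hAdvd : 2 * D ^ 2 ∣ A := (Nat.dvd_add_left hBdvd).mp (by rw [hAB]; exact hκu)
    have hApos : 0 < A := by
      refine Finset.sum_pos' (fun _ _ => Nat.zero_le _) ⟨χ₀, Finset.mem_filter.mpr ⟨hχ₀, hD₀D⟩, ?_⟩
      have := quotDeg_pos' hX hχ₀
      positivity
    have hAle : 2 * D ^ 2 ≤ A := Nat.le_of_dvd hApos hAdvd
    have hmain : ∑ ξ ∈ X.filter (fun ξ => charDegree ξ < e * D), charDegree ξ ^ 2 = e ^ 2 * A := by
      rw [hA, Finset.mul_sum]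
      have hfil : X.filter (fun ξ => charDegree ξ < e * D) = X.filter (fun ξ => quotDeg K ξ < D) := by
        refine Finset.filter_congr fun ξ hξ => ?_
        rw [charDegree_eq_mul' hX hξ]
        exact Nat.mul_lt_mul_left he0
      rw [hfil]
      refine Finset.sum_congr rfl fun ξ hξ => ?_
      rw [charDegree_eq_mul' hX (Finset.mem_filter.mp hξ).1]
      ring
    rw [hmain]
    have hDpos : 0 < D := lt_of_le_of_lt (Nat.zero_le _) hD₀D
    have h5 : 2 * D₀ * D < A := by nlinarith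
    calc 2 * (e * D₀) * (e * D) = e ^ 2 * (2 * D₀ * D) := by ring
      _ < e ^ 2 * A := Nat.mul_lt_mul_of_le_of_lt le_rfl h5 (by positivity)

end Coherent

section Trivial

theorem eq_of_re_eq {w : ℂ} {d : ℝ} (h1 : ‖w‖ ≤ d) (h2 : w.re = d) : w = d := by
  have h3 : ‖w‖ ^ 2 = w.re * w.re + w.im * w.im := by
    rw [Complex.sq_norm, Complex.normSq_apply]
  have h0 : 0 ≤ ‖w‖ := norm_nonneg _
  have h4 : ‖w‖ ^ 2 ≤ d ^ 2 := by
    have : 0 ≤ d := h0.trans h1
    nlinarith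
  have h5 : w.im = 0 := by
    rw [h3, h2] at h4
    nlinarith [sq_nonneg w.im]
  apply Complex.ext
  · simpa using h2
  · simpa using h5

/-- An element in the kernel of an induced character is in the kernel of the character. -/
theorem trivial_of_ind_trivial {K : Subgroup N} (hK : K.Normal) {θ : K → ℂ} (hθ : IsCharacter K θ)
    (z : K) (h : indFun K θ z = indFun K θ 1) : θ z = θ 1 := by
  classical
  have h1 := indFun_apply_of_normal hK θ z
  have h2 := indFun_apply_of_normal hK θ 1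
  simp only [Subgroup.coe_one] at h2
  rw [h1, h2] at h
  have hne : (Nat.card K : ℂ)⁻¹ ≠ 0 := inv_ne_zero (card_subgroup_ne_zero K)
  have h3 := mul_left_cancel₀ hne h
  have hone : ∀ x : N, conjOn hK x⁻¹ θ 1 = θ 1 := fun x =>
    Cfsg.Agent.Lib.Char.CliffordCorr.conjOn_apply_one hK x⁻¹ θ
  set d : ℝ := (charDegree θ : ℝ) with hd
  have hθ1 : θ 1 = (d : ℂ) := by
    rw [← charDegree_natCast hθ, hd]
    simp
  have hle : ∀ x : N, ‖conjOn hK x⁻¹ θ z‖ ≤ d := fun x => by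
    have h0 := norm_le_charDegree (isCharacter_conjOn hK x⁻¹ hθ) z
    have hdeg : charDegree (conjOn hK x⁻¹ θ) = charDegree θ :=
      charDegree_eq_of_eq_natCast ((hone x).trans (charDegree_natCast hθ).symm)
    rw [hdeg] at h0
    exact h0
  have hre1 : ∀ x : N, (conjOn hK x⁻¹ θ 1).re = d := fun x => by
    rw [hone, hθ1]
    simp
  have hre : ∑ x : N, (d - (conjOn hK x⁻¹ θ z).re) = 0 := by
    have h4 := congrArg Complex.re h3
    rw [Complex.re_sum, Complex.re_sum] at h4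
    rw [Finset.sum_sub_distrib, h4, Finset.sum_congr rfl (fun x _ => hre1 x), Finset.sum_const, sub_self]
  have hnn : ∀ x ∈ (Finset.univ : Finset N), 0 ≤ d - (conjOn hK x⁻¹ θ z).re := fun x _ => by
    have := (Complex.re_le_norm (conjOn hK x⁻¹ θ z)).trans (hle x)
    linarith
  have h5 := (Finset.sum_eq_zero_iff_of_nonneg hnn).mp hre 1 (Finset.mem_univ _)
  have h6 : conjOn hK (1 : N)⁻¹ θ = θ := by
    rw [inv_one, conjOn_one]
  rw [h6] at h5
  have h7 : (θ z).re = d := by linarith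
  have h8 := hle 1
  rw [h6] at h8
  rw [eq_of_re_eq h8 h7, hθ1]

end Trivial

section Main

variable {G : Type v} [Group G] [Fintype G]

/-- The set `S \ S(Z)`. -/
theorem diff_eq (K Z : Subgroup N) [hK : K.Normal] [hZ : Z.Normal] (hZK : Z ≤ K)
    (hirr : ∀ χ ∈ inducedIrrAbove K ⊥ \ inducedIrrAbove K Z, IsIrrCharacter N χ) :
    inducedIrrAbove K ⊥ \ inducedIrrAbove K Z = {χ | IsIrrCharacter N χ ∧ ∃ z ∈ Z, χ z ≠ χ 1} := by
  classical
  letI : Fintype K := Fintype.ofFinite K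
  ext χ
  constructor
  · intro hχ
    refine ⟨hirr χ hχ, ?_⟩
    obtain ⟨⟨θ, h1, h2, -, rfl⟩, h5⟩ := hχ
    have h6 : ¬ ∀ a : K, (a : N) ∈ Z → θ a = θ 1 := fun h => h5 ⟨θ, h1, h2, h, rfl⟩
    push Not at h6
    obtain ⟨a, ha, ha2⟩ := h6
    refine ⟨a, ha, fun h => ha2 ?_⟩
    exact trivial_of_ind_trivial hK (isCharacter_of_isIrrCharacter h1) a h
  · rintro ⟨hχ, z, hz, hne⟩
    have hres : IsClassFunction K (fun n : K => χ n) :=
      isClassFunction_of_isCharacter (isCharacter_restrict K (isCharacter_of_isIrrCharacter hχ))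
    have hres0 : (fun n : K => χ n) ≠ 0 := by
      intro h
      have h1 := congrFun h 1
      simp only [Subgroup.coe_one, Pi.zero_apply] at h1
      have h2 := charDegree_pos hχ
      rw [← charDegree_natCast (isCharacter_of_isIrrCharacter hχ)] at h1
      have h3 : charDegree χ = 0 := by exact_mod_cast h1
      omega
    obtain ⟨θ, hθ, hcon⟩ := exists_irr_constituent hres hres0
    have hcl := clifford_restrict hK hχ hθ hcon
    have hnt : ∃ a : K, (a : N) ∈ Z ∧ θ a ≠ θ 1 := by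
      by_contra hall
      push Not at hall
      apply hne
      have h1 := congrFun hcl ⟨z, hZK hz⟩
      have h2 := congrFun hcl 1
      simp only [Subgroup.coe_one, Pi.smul_apply, Finset.sum_apply, smul_eq_mul] at h1 h2
      rw [h1, h2]
      congr 1
      refine Finset.sum_congr rfl fun ψ hψ => ?_
      obtain ⟨g, rfl⟩ := (mem_orbitFinset hK θ ψ).mp hψ
      rw [Cfsg.Agent.Lib.Char.CliffordCorr.conjOn_apply_one, conjOn_apply]
      refine hall _ ?_
      exact hZ.conj_mem z hz g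
    obtain ⟨a, ha, ha2⟩ := hnt
    have hθ1 : θ ≠ fun _ => 1 := by
      rintro rfl
      exact ha2 rfl
    have hmem : indFun K θ ∈ inducedIrrAbove K ⊥ \ inducedIrrAbove K Z := by
      refine ⟨⟨θ, hθ, hθ1, fun b hb => ?_, rfl⟩, ?_⟩
      · have : b = 1 := Subtype.ext (by simpa using hb)
        rw [this]
      · rintro ⟨θ', h1, -, h3, h4⟩
        obtain ⟨g, hg⟩ := (mem_orbitFinset hK θ' θ).mp (mem_orbit_of_ind_eq K hθ h1 h4)
        apply ha2
        rw [← hg, Cfsg.Agent.Lib.Char.CliffordCorr.conjOn_apply_one, conjOn_apply]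
        exact h3 _ (hZ.conj_mem _ ha g)
    have hIrr := hirr _ hmem
    have h1 : classInner χ (indFun K θ) ≠ 0 := by
      rw [classInner_indFun_right K θ χ (isClassFunction_of_isIrrCharacter hχ)]
      exact hcon
    rw [classInner_irr hχ hIrr] at h1
    have h2 : χ = indFun K θ := by
      by_contra h3
      exact h1 (if_neg h3)
    rw [h2]
    exact hmem

/-- The full statement. -/
theorem main (K : Subgroup N) [hK : K.Normal] (hsolv : Group.IsSolvable K) (τ : (N → ℂ) → (G → ℂ))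
    (R : (N → ℂ) → Finset (G → ℂ)) (hS : IsCoherenceSystem (inducedIrrAbove K ⊥) τ R)
    (hodd : Odd (Nat.card N)) (hnil : Group.IsNilpotent K) (hH₁K : ⁅K, K⁆ < K) (hKL : K < ⊤)
    (hfrob : ∀ k ∈ K, k ∉ ⁅K, K⁆ → ∀ x : N, x * k * x⁻¹ * k⁻¹ ∈ ⁅K, K⁆ → x ∈ K) (Z : Subgroup N)
    [hZ : Z.Normal] (hZ1 : Z ≠ ⊥) (hZK : Z ≤ K) (hZc : ∀ z ∈ Z, ∀ k ∈ K, z * k = k * z)
    (hirr : ∀ χ ∈ inducedIrrAbove K ⊥ \ inducedIrrAbove K Z, IsIrrCharacter N χ) :
    inducedIrrAbove K ⊥ \ inducedIrrAbove K Z = {χ | IsIrrCharacter N χ ∧ ∃ z ∈ Z, χ z ≠ χ 1} ∧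
      IsCoherent (inducedIrrAbove K ⊥ \ inducedIrrAbove K Z) {1}ᶜ τ := by
  classical
  have hset := diff_eq K Z hZK hirr
  refine ⟨hset, ?_⟩
  have hcoe : (↑(nontrivOn Z) : Set (N → ℂ)) = inducedIrrAbove K ⊥ \ inducedIrrAbove K Z := by
    rw [hset]
    exact coe_nontrivOn
  have hXS : (↑(nontrivOn Z) : Set (N → ℂ)) ⊆ inducedIrrAbove K ⊥ := by
    rw [hcoe]
    exact Set.sdiff_subset
  have hXc : ∀ φ ∈ (↑(nontrivOn Z) : Set (N → ℂ)), conjFun φ ∈ (↑(nontrivOn Z) : Set (N → ℂ)) := by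
    intro χ hχ
    obtain ⟨h1, z, hz, hne⟩ := mem_nontrivOn.mp hχ
    refine mem_nontrivOn.mpr ⟨Cfsg.Agent.Lib.CharX.Conj.isIrr_conj h1, z, hz, ?_⟩
    intro h
    exact hne ((starRingEnd ℂ).injective h)
  rw [← hcoe]
  haveI hcn : (⁅K, K⁆ : Subgroup N).Normal := Subgroup.commutator_normal K K
  by_cases hpp : ∃ p m : ℕ, p.Prime ∧ Nat.card K = p ^ m
  · obtain ⟨p, m, hp, hm⟩ := hpp
    obtain ⟨u, hu1, -, hu2⟩ := Cfsg.Agent.Lib.Desc.Section.frob_section hodd hH₁K le_rfl hfrob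
    have hdv : (⁅K, K⁆ : Subgroup N).relIndex K ∣ p ^ m := by
      rw [← hm]
      exact Subgroup.relIndex_dvd_card _ _
    obtain ⟨r, -, hr⟩ := (Nat.dvd_prime_pow hp).mp hdv
    have he0 : 0 < K.index := Nat.pos_of_ne_zero Subgroup.index_ne_zero_of_finite
    have hr0 : r ≠ 0 := by
      rintro rfl
      rw [pow_zero, hu1] at hr
      have : K.index * u = 0 := by omega
      have h2 : 0 < K.index * u := Nat.mul_pos he0 (by omega)
      omega
    have hcop : Nat.Coprime K.index (Nat.card K) := by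
      rw [hm]
      refine Nat.Coprime.pow_right _ ?_
      rw [Nat.coprime_comm, Nat.Prime.coprime_iff_not_dvd hp]
      intro hdvd
      have h1 : p ∣ K.index * u + 1 := by
        rw [← hu1, hr]
        exact dvd_pow_self p hr0
      have h2 : p ∣ K.index * u := hdvd.mul_right u
      have h3 : p ∣ 1 := (Nat.dvd_add_right h2).mp h1
      exact hp.one_lt.ne' (Nat.dvd_one.mp h3)
    have hX : ∀ χ ∈ nontrivOn Z, ∃ θ : K → ℂ, IsIrrCharacter K θ ∧ χ = indFun K θ := by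
      intro χ hχ
      obtain ⟨θ, h1, -, -, h4⟩ := hXS hχ
      exact ⟨θ, h1, h4⟩
    exact coherent_X' hX hcop hodd hp hm hZK hZ1 hZc τ
      (Cfsg.Agent.Lib.Coh.ByDegree.iso_mono hS.isometry (zspanOn_mono _ hXS))
      (fun α hα => hS.map_one α (zspanOn_mono _ hXS hα))
  · -- `K` is not a `p`-group
    haveI hb : ((⊥ : Subgroup N).subgroupOf K).Normal := Subgroup.Normal.subgroupOf inferInstance K
    have hnil' : Group.IsNilpotent (↥K ⧸ (⊥ : Subgroup N).subgroupOf K) :=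
      Group.nilpotent_of_surjective (QuotientGroup.mk' _) (QuotientGroup.mk'_surjective _)
    have hco := Cfsg.Agent.S1521.result K hsolv τ R hS hodd ⊥ bot_le hnil' ⁅K, K⁆ (sup_bot_eq _).symm hH₁K hKL
      hfrob (Or.inr (Or.inr (Or.inl (by
        rintro ⟨p, m, hp, hm⟩
        rw [Subgroup.relIndex_bot_left] at hm
        exact hpp ⟨p, m, hp, hm⟩))))
    have hne : (nontrivOn Z).Nonempty := by
      by_contra hne
      rw [Finset.not_nonempty_iff_eq_empty] at hne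
      have h1 := sum_sq_nontrivOn Z
      rw [hne, Finset.sum_empty, zero_add] at h1
      have h2 := Subgroup.card_mul_index Z
      have h3 : Nat.card Z = 1 := by
        have h4 : 0 < Z.index := Nat.pos_of_ne_zero Subgroup.index_ne_zero_of_finite
        rw [h1] at h2
        exact Nat.eq_of_mul_eq_mul_right (Nat.card_pos (α := N)) (by rw [h2, one_mul])
      exact hZ1 ((Subgroup.eq_bot_iff_card Z).mpr h3)
    obtain ⟨χ, hχ⟩ := hne
    exact coherent_mono hXS hco (exists_ne_zero_of_system hS hXS hXc (Finset.mem_coe.mpr hχ))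

end Main

end Cfsg.Agent.Lib.Desc.XCoh2
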